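import Mathlib
import Cfsg.Agent.Lib.OrthE.Alt4
import Cfsg.Agent.Lib.Symp.Basic

/-!
# The isomorphisms `PΩ₆⁺ ≃ PSL₄` and `PΩ₅ ≃ PSp₄`
-/

set_option autoImplicit false

namespace CfsgLib.OrthE

open QuadraticMap Module Matrix
open scoped MatrixGroups

variable {F : Type*} [Field F]

/-! ### `Ω₆⁺` -/

/-- Coordinates of `quadFormPlus 3` as an alternating matrix. -/
def L6 : (Fin 3 ⊕ Fin 3 → F) →ₗ[F] Matrix (Fin 4) (Fin 4) F where
  toFun x := alt4 (x (.inl 0)) (x (.inl 2)) (x (.inl 1)) (x (.inr 1)) (-x (.inr 2)) (x (.inr 0))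
  map_add' x y := by simp [alt4_add, add_comm]
  map_smul' c x := by simp [smul_alt4]

theorem L6_apply (x : Fin 3 ⊕ Fin 3 → F) : L6 x =
    alt4 (x (.inl 0)) (x (.inl 2)) (x (.inl 1)) (x (.inr 1)) (-x (.inr 2)) (x (.inr 0)) := rfl

/-- The left inverse of `L6`. -/
def R6 : Matrix (Fin 4) (Fin 4) F →ₗ[F] (Fin 3 ⊕ Fin 3 → F) where
  toFun X := Sum.elim ![X 0 1, X 0 3, X 0 2] ![X 2 3, X 1 2, -X 1 3]
  map_add' x y := by ext (i | i) <;> fin_cases i <;> simp [add_comm]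
  map_smul' c x := by ext (i | i) <;> fin_cases i <;> simp

theorem R6_apply (X : Matrix (Fin 4) (Fin 4) F) :
    R6 X = Sum.elim ![X 0 1, X 0 3, X 0 2] ![X 2 3, X 1 2, -X 1 3] := rfl

theorem L6_R6 (A : Matrix (Fin 4) (Fin 4) F) (x : Fin 3 ⊕ Fin 3 → F) :
    L6 (R6 (A * L6 x * Aᵀ)) = A * L6 x * Aᵀ := by
  conv_rhs => rw [L6_apply x, ← alt4_sandwich, ← L6_apply x]
  rw [L6_apply, R6_apply]
  simp

theorem qPlus_three_eq (x : Fin 3 ⊕ Fin 3 → F) : qPlus F 3 x = pf (L6 x) := by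
  rw [L6_apply, pf_alt4, qPlus_apply, Fin.sum_univ_three]; ring

variable (F) in
/-- The exterior square representation of `SL₄`. -/
def hom6 : SL(4, F) →* O (qPlus F 3) :=
  homOfLR L6 R6 (fun A => sandwich A.1 A.1ᵀ) (fun X => by simp [sandwich_apply])
    (fun g h X => by simp [sandwich_apply, Matrix.mul_assoc])
    (fun x => by ext (i | i) <;> fin_cases i <;> simp [L6_apply, R6_apply])
    (fun g x => L6_R6 g.1 x)
    (fun g x => by
      rw [qPlus_three_eq, qPlus_three_eq, sandwich_apply, L6_R6, L6_apply, pf_sandwich, g.2,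
        one_mul])

theorem hom6_apply (A : SL(4, F)) (x : Fin 3 ⊕ Fin 3 → F) :
    (hom6 F A).1 x = R6 (A.1 * L6 x * A.1ᵀ) := rfl

theorem hom6_up (w : Fin 3 ⊕ Fin 3 → F) (h1 : w (.inl 0) = 0) (h2 : w (.inr 0) = 0) :
    hom6 F ⟨upT (-w (.inl 2)) (-w (.inl 1)) (-w (.inr 1)) (w (.inr 2)), det_upT _ _ _ _⟩
      = eich (qPlus F 3) (Pi.single (.inl 0) 1) w := by
  refine O_ext fun x => (hom6_apply _ x).trans ?_
  rw [L6_apply, upT_sandwich, R6_apply,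
    eich_apply (hyp_qPlus 0).he (by rw [polar_comm, polar_qPlus_inl, h2])]
  ext (i | i) <;> fin_cases i <;>
    simp [polar_qPlus, qPlus_apply, Fin.sum_univ_three, h1, h2] <;> ring

theorem hom6_lo (w : Fin 3 ⊕ Fin 3 → F) (h1 : w (.inl 0) = 0) (h2 : w (.inr 0) = 0) :
    hom6 F ⟨loT (-w (.inl 2)) (-w (.inl 1)) (-w (.inr 1)) (w (.inr 2)), det_loT _ _ _ _⟩
      = eich (qPlus F 3) (Pi.single (.inr 0) 1) w := by
  refine O_ext fun x => (hom6_apply _ x).trans ?_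
  rw [L6_apply, loT_sandwich, R6_apply,
    eich_apply (hyp_qPlus 0).hf (by rw [polar_comm, polar_qPlus_inr, h1])]
  ext (i | i) <;> fin_cases i <;>
    simp [polar_qPlus, qPlus_apply, Fin.sum_univ_three, h1, h2] <;> ring

theorem E_qPlus_three : E (qPlus F 3) = commutator (O (qPlus F 3)) :=
  (hyp_qPlus 0).E_eq_commutator_of_five (nondeg_qPlus 3) (by simp)

theorem range_hom6 : (hom6 F).range = E (qPlus F 3) := by
  apply le_antisymm
  · rintro _ ⟨g, rfl⟩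
    rw [E_qPlus_three]
    exact map_mem_commutator_of_perfect _ (CfsgLib.Classical.sl_commutator_eq_top (by simp)) g
  · refine (hyp_qPlus 0).E_le (nondeg_qPlus 3)
      ((hyp_qPlus 0).exists_nonsingular (nondeg_qPlus 3) (by simp)) _
      (fun w h1 h2 => ⟨_, hom6_up w ?_ ?_⟩) (fun w h1 h2 => ⟨_, hom6_lo w ?_ ?_⟩) <;>
    first | exact (polar_qPlus_inl 3 w 0).symm.trans h1 | exact (polar_qPlus_inr 3 w 0).symm.trans h2

theorem hom6_center (g : SL(4, F)) (ε : F) (hε : ε ≠ 0) (h : ∀ x, (hom6 F g).1 x = ε • x) :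
    g ∈ Subgroup.center SL(4, F) := by
  have key : ∀ x, g.1 * L6 x * g.1ᵀ = ε • L6 x := fun x => by
    rw [← L6_R6, ← hom6_apply, h, map_smul]
  refine sl_mem_center_of_smul g _ (eq_smul_one_of_alt4 g.1 hε ?_ ?_ ?_ ?_ ?_)
  · simpa [L6_apply] using key (Pi.single (.inl 0) 1)
  · simpa [L6_apply] using key (Pi.single (.inr 0) 1)
  · simpa [L6_apply] using key (Pi.single (.inl 1) 1)
  · simpa [L6_apply] using key (Pi.single (.inr 1) 1)
  · simpa [L6_apply] using key (Sum.elim ![0, 0, 1] ![0, 0, 1])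

theorem nonempty_POmega_six_plus :
    Nonempty (Cfsg.POmega F (Cfsg.quadFormPlus 3 F) ≃* PSL(4, F)) :=
  ⟨(pomegaEquiv (qPlus_eq 3) E_qPlus_three).trans
    (quotEquivOfHom (hyp_qPlus 0) (nondeg_qPlus 3) (by simp) (hom6 F) range_hom6
      hom6_center).symm⟩

/-! ### `Ω₅` -/

/-- Reindexing `Fin 2 ⊕ Fin 2` as `Fin 4`. -/
def re4 : Matrix (Fin 2 ⊕ Fin 2) (Fin 2 ⊕ Fin 2) F ≃ₐ[F] Matrix (Fin 4) (Fin 4) F :=
  Matrix.reindexAlgEquiv F F (finSumFinEquiv : Fin 2 ⊕ Fin 2 ≃ Fin 4)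

theorem re4_transpose (A : Matrix (Fin 2 ⊕ Fin 2) (Fin 2 ⊕ Fin 2) F) : re4 Aᵀ = (re4 A)ᵀ := rfl

theorem det_re4 (A : Matrix (Fin 2 ⊕ Fin 2) (Fin 2 ⊕ Fin 2) F) : (re4 A).det = A.det :=
  Matrix.det_reindexAlgEquiv _ _ _ _

theorem re4_J : re4 (Matrix.J (Fin 2) F) = alt4 0 (-1) 0 0 (-1) 0 := by
  apply re4.symm.injective
  rw [AlgEquiv.symm_apply_apply]
  ext (i | i) (j | j) <;> fin_cases i <;> fin_cases j <;>
    simp [Matrix.J, re4, alt4, finSumFinEquiv]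

theorem mem_sp4_iff (A : Matrix (Fin 2 ⊕ Fin 2) (Fin 2 ⊕ Fin 2) F) :
    A ∈ symplecticGroup (Fin 2) F ↔
      re4 A * alt4 0 (-1) 0 0 (-1) 0 * (re4 A)ᵀ = alt4 0 (-1) 0 0 (-1) 0 := by
  rw [SymplecticGroup.mem_iff, ← re4_J, ← re4_transpose, ← map_mul, ← map_mul,
    re4.injective.eq_iff]

/-- Coordinates of `quadFormOdd 2` as an alternating matrix. -/
def L5 : (Unit ⊕ (Fin 2 ⊕ Fin 2) → F) →ₗ[F] Matrix (Fin 4) (Fin 4) F where
  toFun x := alt4 (x (.inr (.inl 0))) (x (.inl ())) (x (.inr (.inl 1))) (x (.inr (.inr 1)))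
    (-x (.inl ())) (x (.inr (.inr 0)))
  map_add' x y := by simp [alt4_add, add_comm]
  map_smul' c x := by simp [smul_alt4]

theorem L5_apply (x : Unit ⊕ (Fin 2 ⊕ Fin 2) → F) : L5 x =
    alt4 (x (.inr (.inl 0))) (x (.inl ())) (x (.inr (.inl 1))) (x (.inr (.inr 1)))
      (-x (.inl ())) (x (.inr (.inr 0))) := rfl

/-- The left inverse of `L5`. -/
def R5 : Matrix (Fin 4) (Fin 4) F →ₗ[F] (Unit ⊕ (Fin 2 ⊕ Fin 2) → F) where
  toFun X := Sum.elim (fun _ => X 0 2) (Sum.elim ![X 0 1, X 0 3] ![X 2 3, X 1 2])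
  map_add' x y := by
    ext (i | i | i)
    · simp
    · fin_cases i <;> simp
    · fin_cases i <;> simp
  map_smul' c x := by
    ext (i | i | i)
    · simp
    · fin_cases i <;> simp
    · fin_cases i <;> simp

theorem R5_apply (X : Matrix (Fin 4) (Fin 4) F) :
    R5 X = Sum.elim (fun _ => X 0 2) (Sum.elim ![X 0 1, X 0 3] ![X 2 3, X 1 2]) := rfl

theorem L5_R5 (A : symplecticGroup (Fin 2) F) (x : Unit ⊕ (Fin 2 ⊕ Fin 2) → F) :
    L5 (R5 (re4 A.1 * L5 x * (re4 A.1)ᵀ)) = re4 A.1 * L5 x * (re4 A.1)ᵀ := by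
  have h := pfB_sandwich (x (.inr (.inl 0))) (x (.inl ())) (x (.inr (.inl 1))) (x (.inr (.inr 1)))
    (-x (.inl ())) (x (.inr (.inr 0))) 0 (-1) 0 0 (-1) 0 (re4 A.1)
  rw [(mem_sp4_iff _).1 A.2, ← L5_apply] at h
  have h' : -(re4 A.1 * L5 x * (re4 A.1)ᵀ) 0 2 = (re4 A.1 * L5 x * (re4 A.1)ᵀ) 1 3 := by
    simp only [pfB, L5_apply, alt4_01, alt4_02, alt4_03, alt4_12, alt4_13, alt4_23] at h ⊢
    linear_combination -h
  conv_rhs => rw [L5_apply x, ← alt4_sandwich, ← L5_apply x, ← h']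
  rw [L5_apply, R5_apply]
  simp

theorem qOdd_two_eq (x : Unit ⊕ (Fin 2 ⊕ Fin 2) → F) : qOdd F 2 x = pf (L5 x) := by
  rw [L5_apply, pf_alt4, qOdd_apply, Fin.sum_univ_two]; ring

variable (F) in
/-- The five-dimensional representation of `Sp₄`. -/
def hom5 : symplecticGroup (Fin 2) F →* O (qOdd F 2) :=
  homOfLR L5 R5 (fun A => sandwich (re4 A.1) (re4 A.1)ᵀ) (fun X => by simp [sandwich_apply])
    (fun g h X => by simp [sandwich_apply, Matrix.mul_assoc])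
    (fun x => by
      ext (i | i | i)
      · simp [L5_apply, R5_apply]
      · fin_cases i <;> simp [L5_apply, R5_apply]
      · fin_cases i <;> simp [L5_apply, R5_apply])
    (fun g x => L5_R5 g x)
    (fun g x => by
      rw [qOdd_two_eq, qOdd_two_eq, sandwich_apply, L5_R5, L5_apply, pf_sandwich, det_re4,
        SymplecticGroup.det_eq_one g.2, one_mul])

theorem hom5_apply (A : symplecticGroup (Fin 2) F) (x : Unit ⊕ (Fin 2 ⊕ Fin 2) → F) :
    (hom5 F A).1 x = R5 (re4 A.1 * L5 x * (re4 A.1)ᵀ) := rfl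

theorem upT_mem_sp4 (q r s : F) : re4.symm (upT q r s (-q)) ∈ symplecticGroup (Fin 2) F := by
  rw [mem_sp4_iff, AlgEquiv.apply_symm_apply, upT_sandwich]; simp

theorem loT_mem_sp4 (q r s : F) : re4.symm (loT q r s (-q)) ∈ symplecticGroup (Fin 2) F := by
  rw [mem_sp4_iff, AlgEquiv.apply_symm_apply, loT_sandwich]; simp

theorem hom5_up (w : Unit ⊕ (Fin 2 ⊕ Fin 2) → F) (h1 : w (.inr (.inl 0)) = 0)
    (h2 : w (.inr (.inr 0)) = 0) :
    hom5 F ⟨_, upT_mem_sp4 (-w (.inl ())) (-w (.inr (.inl 1))) (-w (.inr (.inr 1)))⟩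
      = eich (qOdd F 2) (Pi.single (.inr (.inl 0)) 1) w := by
  refine O_ext fun x => ?_
  rw [hom5_apply, AlgEquiv.apply_symm_apply, L5_apply, upT_sandwich, R5_apply,
    eich_apply (hyp_qOdd 0).he (by rw [polar_comm, polar_qOdd_inl, h2])]
  ext (i | i | i)
  · simp [polar_qOdd, qOdd_apply, Fin.sum_univ_two, h1, h2]; ring
  all_goals fin_cases i <;> simp [polar_qOdd, qOdd_apply, Fin.sum_univ_two, h1, h2] <;> ring

theorem hom5_lo (w : Unit ⊕ (Fin 2 ⊕ Fin 2) → F) (h1 : w (.inr (.inl 0)) = 0)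
    (h2 : w (.inr (.inr 0)) = 0) :
    hom5 F ⟨_, loT_mem_sp4 (-w (.inl ())) (-w (.inr (.inl 1))) (-w (.inr (.inr 1)))⟩
      = eich (qOdd F 2) (Pi.single (.inr (.inr 0)) 1) w := by
  refine O_ext fun x => ?_
  rw [hom5_apply, AlgEquiv.apply_symm_apply, L5_apply, loT_sandwich, R5_apply,
    eich_apply (hyp_qOdd 0).hf (by rw [polar_comm, polar_qOdd_inr, h1])]
  ext (i | i | i)
  · simp [polar_qOdd, qOdd_apply, Fin.sum_univ_two, h1, h2]; ring
  all_goals fin_cases i <;> simp [polar_qOdd, qOdd_apply, Fin.sum_univ_two, h1, h2] <;> ring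

theorem E_qOdd_two (h2 : (2 : F) ≠ 0) : E (qOdd F 2) = commutator (O (qOdd F 2)) :=
  (hyp_qOdd 0).E_eq_commutator_of_five (nondeg_qOdd h2 2) (by simp)

theorem range_hom5 (h2 : (2 : F) ≠ 0) : (hom5 F).range = E (qOdd F 2) := by
  apply le_antisymm
  · rintro _ ⟨g, rfl⟩
    rw [E_qOdd_two h2]
    exact map_mem_commutator_of_perfect _
      (CfsgLib.Symp.commutator_eq_top_of_two_ne_zero le_rfl h2) g
  · refine (hyp_qOdd 0).E_le (nondeg_qOdd h2 2)
      ((hyp_qOdd 0).exists_nonsingular (nondeg_qOdd h2 2) (by simp)) _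
      (fun w h1 h2 => ⟨_, hom5_up w ?_ ?_⟩) (fun w h1 h2 => ⟨_, hom5_lo w ?_ ?_⟩) <;>
    first | exact (polar_qOdd_inl 2 w 0).symm.trans h1 | exact (polar_qOdd_inr 2 w 0).symm.trans h2

theorem hom5_center (g : symplecticGroup (Fin 2) F) (ε : F) (hε : ε ≠ 0)
    (h : ∀ x, (hom5 F g).1 x = ε • x) : g ∈ Subgroup.center (symplecticGroup (Fin 2) F) := by
  have key : ∀ x, re4 g.1 * L5 x * (re4 g.1)ᵀ = ε • L5 x := fun x => by
    rw [← L5_R5, ← hom5_apply, h, map_smul]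
  have h1 : re4 g.1 = re4 g.1 0 0 • 1 := by
    refine eq_smul_one_of_alt4 _ hε ?_ ?_ ?_ ?_ ?_
    · simpa [L5_apply] using key (Pi.single (.inr (.inl 0)) 1)
    · simpa [L5_apply] using key (Pi.single (.inr (.inr 0)) 1)
    · simpa [L5_apply] using key (Pi.single (.inr (.inl 1)) 1)
    · simpa [L5_apply] using key (Pi.single (.inr (.inr 1)) 1)
    · simpa [L5_apply] using key (Pi.single (.inl ()) 1)
  have h2 : g.1 = re4 g.1 0 0 • 1 := re4.injective (by rw [map_smul, map_one]; exact h1)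
  refine Subgroup.mem_center_iff.2 fun B => Subtype.ext ?_
  change B.1 * g.1 = g.1 * B.1
  rw [h2]; simp

theorem nonempty_POmega_five (h2 : (2 : F) ≠ 0) :
    Nonempty (Cfsg.POmega F (Cfsg.quadFormOdd 2 F) ≃* Cfsg.PSp 2 F) :=
  ⟨(pomegaEquiv (qOdd_eq 2) (E_qOdd_two h2)).trans
    (quotEquivOfHom (hyp_qOdd 0) (nondeg_qOdd h2 2) (by simp) (hom5 F) (range_hom5 h2)
      hom5_center).symm⟩

end CfsgLib.OrthE
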